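import Mathlib

set_option autoImplicit false

/-! # No simple group of order 720: definitions and conjugation API (helper74; proof by helper25) -/

namespace Cfsg.Agent.Lib.Helper74.O720

variable {G : Type*} [Group G]

/-- normalizer -/
abbrev Nz (H : Subgroup G) : Subgroup G := Subgroup.normalizer (H : Set G)

/-- centralizer -/
abbrev Cz (H : Subgroup G) : Subgroup G := Subgroup.centralizer (H : Set G)

/-- the conjugate subgroup `g M g⁻¹` -/
def cj (g : G) (M : Subgroup G) : Subgroup G := M.map (MulAut.conj g).toMonoidHom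

/-- `M ∩ g M g⁻¹` -/
abbrev Ig (M : Subgroup G) (g : G) : Subgroup G := M ⊓ cj g M

theorem mem_cj {g x : G} {M : Subgroup G} : x ∈ cj g M ↔ g⁻¹ * x * g ∈ M := by
  constructor
  · rintro ⟨y, hy, rfl⟩
    have : g⁻¹ * (MulAut.conj g).toMonoidHom y * g = y := by
      simp [MulAut.conj_apply, mul_assoc]
    rw [this]; exact hy
  · intro h
    exact ⟨g⁻¹ * x * g, h, by simp [MulAut.conj_apply, mul_assoc]⟩

theorem conj_mem_cj {g x : G} {M : Subgroup G} (hx : x ∈ M) : g * x * g⁻¹ ∈ cj g M :=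
  ⟨x, hx, by simp [MulAut.conj_apply]⟩

theorem card_cj (g : G) (M : Subgroup G) : Nat.card (cj g M) = Nat.card M :=
  Subgroup.card_map_of_injective (MulAut.conj g).injective

theorem cj_mono {g : G} {A B : Subgroup G} (h : A ≤ B) : cj g A ≤ cj g B := Subgroup.map_mono h

theorem cj_one (M : Subgroup G) : cj 1 M = M := by
  ext x; rw [mem_cj]; simp

theorem cj_cj (g k : G) (M : Subgroup G) : cj g (cj k M) = cj (g * k) M := by
  ext x; rw [mem_cj, mem_cj, mem_cj]; simp [mul_assoc]

theorem cj_inf (g : G) (A B : Subgroup G) : cj g (A ⊓ B) = cj g A ⊓ cj g B := by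
  ext x; simp only [mem_cj, Subgroup.mem_inf]

theorem cj_le_iff {g : G} {A B : Subgroup G} : cj g A ≤ B ↔ A ≤ cj g⁻¹ B := by
  constructor
  · intro h x hx
    rw [mem_cj]
    simpa using h (conj_mem_cj (g := g) hx)
  · intro h x hx
    rw [mem_cj] at hx
    have := h hx
    rw [mem_cj] at this
    simpa [mul_assoc] using this

theorem cj_of_mem {g : G} {M : Subgroup G} (hg : g ∈ M) : cj g M = M := by
  ext x; rw [mem_cj]
  constructor
  · intro h
    have : x = g * (g⁻¹ * x * g) * g⁻¹ := by group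
    rw [this]; exact M.mul_mem (M.mul_mem hg h) (M.inv_mem hg)
  · intro h; exact M.mul_mem (M.mul_mem (M.inv_mem hg) h) hg

theorem cj_eq_self_of_mem_Nz {g : G} {M : Subgroup G} (hg : g ∈ Nz M) : cj g M = M := by
  ext x; rw [mem_cj]
  have := (Subgroup.mem_normalizer_iff.mp (inv_mem hg)) x
  simpa using this.symm

theorem mem_Nz_of_cj_eq {g : G} {M : Subgroup G} (h : cj g M = M) : g ∈ Nz M := by
  rw [Subgroup.mem_normalizer_iff]
  intro x
  constructor
  · intro hx; rw [← h]; exact conj_mem_cj hx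
  · intro hx
    rw [← h, mem_cj] at hx
    simpa [mul_assoc] using hx

theorem Nz_cj (g : G) (M : Subgroup G) : Nz (cj g M) = cj g (Nz M) := by
  ext x
  rw [mem_cj]
  constructor
  · intro hx
    apply mem_Nz_of_cj_eq
    have h1 := cj_eq_self_of_mem_Nz hx
    rw [cj_cj] at h1
    have h2 : cj g⁻¹ (cj (x * g) M) = cj g⁻¹ (cj g M) := by rw [h1]
    rw [cj_cj, cj_cj] at h2
    simpa [mul_assoc, cj_one] using h2
  · intro hx
    apply mem_Nz_of_cj_eq
    have h1 := cj_eq_self_of_mem_Nz hx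
    rw [cj_cj]
    have h2 : cj g (cj (g⁻¹ * x * g) M) = cj g M := by rw [h1]
    rw [cj_cj] at h2
    simpa [mul_assoc] using h2

theorem Cz_cj (g : G) (M : Subgroup G) : Cz (cj g M) = cj g (Cz M) := by
  ext x
  rw [mem_cj, Subgroup.mem_centralizer_iff, Subgroup.mem_centralizer_iff]
  constructor
  · intro h y hy
    have := h (g * y * g⁻¹) (conj_mem_cj hy)
    calc y * (g⁻¹ * x * g) = g⁻¹ * ((g * y * g⁻¹) * x) * g := by group
      _ = g⁻¹ * (x * (g * y * g⁻¹)) * g := by rw [this]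
      _ = g⁻¹ * x * g * y := by group
  · intro h y hy
    have hy' : g⁻¹ * y * g ∈ M := mem_cj.mp hy
    have := h _ hy'
    calc y * x = g * ((g⁻¹ * y * g) * (g⁻¹ * x * g)) * g⁻¹ := by group
      _ = g * ((g⁻¹ * x * g) * (g⁻¹ * y * g)) * g⁻¹ := by rw [this]
      _ = x * y := by group

theorem coe_smul_sylow {p : ℕ} (g : G) (P : Sylow p G) :
    ((g • P : Sylow p G) : Subgroup G) = cj g (P : Subgroup G) := rfl

/-- the stabilizer of the coset `gM` is `g M g⁻¹` -/
theorem smul_coset_eq_iff {M : Subgroup G} {s g : G} :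
    s • (g : G ⧸ M) = (g : G ⧸ M) ↔ s ∈ cj g M := by
  have h1 : s • (g : G ⧸ M) = ((s * g : G) : G ⧸ M) := rfl
  rw [h1, QuotientGroup.eq, mem_cj, ← inv_mem_iff]
  have : ((s * g)⁻¹ * g)⁻¹ = g⁻¹ * s * g := by group
  rw [this]

end Cfsg.Agent.Lib.Helper74.O720
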