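import Mathlib
import Cfsg.Agent.Lib.Helper5.LinearCard
import Cfsg.Agent.Lib.Helper74.O720.Defs

set_option autoImplicit false

namespace Cfsg.Agent.Lib.Helper74.O720

/-- [M2] -/
theorem M2 (F : Type) [Field F] [Fintype F] :
    Nat.card (Matrix.ProjectiveSpecialLinearGroup (Fin 2) F) ≠ 720 := by
  intro h
  have h1 := Cfsg.Agent.Lib.Helper5.card_PSL2 (F := F)
  rw [h] at h1
  obtain ⟨q, hq⟩ : ∃ q, q = Fintype.card F := ⟨_, rfl⟩
  rw [← hq] at h1
  have hg : Nat.gcd (q - 1) 2 = 1 ∨ Nat.gcd (q - 1) 2 = 2 := by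
    have := Nat.gcd_dvd_right (q - 1) 2
    rcases (Nat.dvd_prime Nat.prime_two).mp this with e | e
    · exact Or.inl e
    · exact Or.inr e
  by_cases hq12 : q ≤ 11
  · interval_cases q <;> simp at h1
  · have h12 : 12 ≤ q := by omega
    have h2 : 12 * (12 ^ 2 - 1) ≤ q * (q ^ 2 - 1) := by
      apply Nat.mul_le_mul h12
      apply Nat.sub_le_sub_right
      exact Nat.pow_le_pow_left h12 2
    rcases hg with e | e <;> rw [e] at h1 <;> omega

end Cfsg.Agent.Lib.Helper74.O720
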