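import Mathlib
import Cfsg.Prelude.Def_LieExceptional
import Cfsg.Agent.S0344
import Cfsg.Agent.Lib.Helper74.O720.Defs
import Cfsg.Agent.Lib.Helper50.O720.A40
import Cfsg.Agent.Lib.Helper50.O720.B40
import Cfsg.Agent.Lib.Helper71.O720.C1
import Cfsg.Agent.Lib.Helper50.O720.C2
import Cfsg.Agent.Lib.Helper50.O720.C3
import Cfsg.Agent.Lib.Helper1.O720.D1
import Cfsg.Agent.Lib.Helper20.O720.D2
import Cfsg.Agent.Lib.Helper20.O720.D3
import Cfsg.Agent.Lib.Helper53.O720.E2
import Cfsg.Agent.Lib.Helper1.O720.E10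
import Cfsg.Agent.Lib.Helper25.O720.F1
import Cfsg.Agent.Lib.Helper71.O720.F2
import Cfsg.Agent.Lib.Helper63.O720.G0
import Cfsg.Agent.Lib.Helper86.O720.H10
import Cfsg.Agent.Lib.Helper25.O720.I1
import Cfsg.Agent.Lib.Helper86.O720.I2a
import Cfsg.Agent.Lib.Helper34.O720.IG
import Cfsg.Agent.Lib.Helper86.O720.J1
import Cfsg.Agent.Lib.Helper3.O720.J2
import Cfsg.Agent.Lib.Helper2.O720.K0
import Cfsg.Agent.Lib.Helper25.O720.L1
import Cfsg.Agent.Lib.Helper25.O720.L2
import Cfsg.Agent.Lib.Helper96.O720.L3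
import Cfsg.Agent.Lib.Helper69.O720.L4
import Cfsg.Agent.Lib.Helper96.O720.L5
import Cfsg.Agent.Lib.Helper74.O720.M2
import Cfsg.Agent.Lib.Helper4.O720.NC
import Cfsg.Agent.Lib.Helper4.O720.NCG
import Cfsg.Agent.Lib.Helper3.O720.ORB
import Cfsg.Agent.Lib.Helper20.O720.P9
import Cfsg.Agent.Lib.Helper63.O720.S9
import Cfsg.Agent.Lib.Helper34.O720.SGN
import Cfsg.Agent.Lib.Helper40.O720.ST
import Cfsg.Agent.Lib.Helper20.O720.SY
import Cfsg.Agent.Lib.Helper22.O720.T0
import Cfsg.Agent.Lib.Helper50.O720.T0a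
import Cfsg.Agent.Lib.Helper63.O720.T0d
import Cfsg.Agent.Lib.Helper1.O720.T1
import Cfsg.Agent.Lib.Helper54.O720.T2
import Cfsg.Agent.Lib.Helper69.O720.TF
import Cfsg.Agent.Lib.Helper86.O720.X10
import Cfsg.Agent.Lib.Helper63.O720.XN
import Cfsg.Agent.Lib.Helper22.O720.ZA
import Cfsg.Agent.Lib.Helper96.O720.ZB
import Cfsg.Agent.Lib.Helper53.O720.ZC
import Cfsg.Agent.Lib.Helper53.O720.ZE

set_option autoImplicit false

/-! # No simple group of order 720 (paper proof: helper25; farm owner: helper74) -/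

namespace Cfsg.Agent.Lib.Helper74.O720

theorem Main_num (n : ℕ) (h1 : n ∣ 72) (h2 : 8 ≤ n) (h3 : ¬ 9 ∣ n) : n = 8 ∨ n = 12 ∨ n = 24 := by
  have : n ≤ 72 := Nat.le_of_dvd (by norm_num) h1
  interval_cases n <;> omega

variable {G : Type*} [Group G] [Finite G] [IsSimpleGroup G]

theorem Main_ne_top (h : Nat.card G = 720) (M : Subgroup G) (hM : Nat.card M = 72) : M ≠ ⊤ := by
  intro e
  rw [e, Subgroup.card_top, h] at hM
  omega

theorem Main_Cz_le_Nz (H : Subgroup G) : Cz H ≤ Nz H := by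
  intro x hx
  rw [Subgroup.mem_normalizer_iff]
  intro y
  rw [Subgroup.mem_centralizer_iff] at hx
  constructor
  · intro hy
    have : x * y * x⁻¹ = y := by rw [← hx y hy]; group
    rw [this]; exact hy
  · intro hy
    have h1 := hx _ hy
    have : y = x * y * x⁻¹ := by
      have h2 : x * y * x⁻¹ * x = x * (x * y * x⁻¹) := h1
      have h3 : x * y = x * (x * y * x⁻¹) := by simpa using h2
      exact mul_left_cancel h3
    rw [this]; exact hy

theorem case40 (h : Nat.card G = 720) (h40 : Nat.card (Sylow 3 G) = 40) : False := by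
  obtain ⟨P, R, hPR, hD⟩ := D1 h h40
  obtain ⟨D, hDdef⟩ : ∃ D : Subgroup G, D = (P : Subgroup G) ⊓ (R : Subgroup G) := ⟨_, rfl⟩
  rw [← hDdef] at hD
  have hDP : D ≤ (P : Subgroup G) := hDdef ▸ inf_le_left
  have hDR : D ≤ (R : Subgroup G) := hDdef ▸ inf_le_right
  have h36 := C1 h h40 D hD P R hPR hDP hDR
  obtain ⟨V, hV4, hVC, hVN⟩ := C2 h h40 D hD P hDP h36
  have hM := C3 h h40 D hD P hDP h36
  have hMtop : Nz D ≠ ⊤ := Main_ne_top h _ hM
  have hV2 : IsPGroup 2 V := IsPGroup.of_card (n := 2) (by rw [hV4]; norm_num)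
  have hVM : V ≤ Nz D := hVC.trans (Main_Cz_le_Nz D)
  have key : ∀ g, V ≤ cj g (Nz D) := by
    intro g
    by_cases hg : g ∈ Nz D
    · rw [cj_of_mem hg]; exact hVM
    · obtain ⟨h8, hdvd⟩ := IG h (Nz D) hM g hg
      have h9 := E2 h h40 D hD hM g hg
      rcases Main_num _ hdvd h8 h9 with e | e | e
      · exact (F1 (Nz D) V (Ig (Nz D) g) hV2 hVM hVN inf_le_left 3 (by rw [e]; norm_num)
          (by rw [hM]; norm_num)).trans inf_le_right
      · exact F2 h h40 D hD hM V hV4 hVC hVN g hg e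
      · exact (F1 (Nz D) V (Ig (Nz D) g) hV2 hVM hVN inf_le_left 3 (by rw [e]; norm_num)
          (by rw [hM]; norm_num)).trans inf_le_right
  have hbot := core_bot (Nz D) V hMtop key
  rw [hbot] at hV4
  simp at hV4

theorem case10 (h : Nat.card G = 720) (h10 : Nat.card (Sylow 3 G) = 10) : False := by
  obtain ⟨P⟩ : Nonempty (Sylow 3 G) := inferInstance
  have hM : Nat.card (Nz (P : Subgroup G)) = 72 := by
    have := card_Nz h P
    rw [h10] at this
    omega
  have hMtop : Nz (P : Subgroup G) ≠ ⊤ := Main_ne_top h _ hM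
  have hI : ∀ g, g ∉ Nz (P : Subgroup G) → Nat.card (Ig (Nz (P : Subgroup G)) g) = 8 ∨
      Nat.card (Ig (Nz (P : Subgroup G)) g) = 12 ∨ Nat.card (Ig (Nz (P : Subgroup G)) g) = 24 :=
    fun g hg => Main_num _ (IG h _ hM g hg).2 (IG h _ hM g hg).1 (E10 h P g hg)
  have hC : Cz (P : Subgroup G) = (P : Subgroup G) := by
    by_contra hC
    obtain ⟨V, hV1, hV2, hVC, hVN⟩ := I1 h P hM hC
    have hVM : V ≤ Nz (P : Subgroup G) := hVC.trans (Main_Cz_le_Nz _)
    apply hV1
    apply core_bot (Nz (P : Subgroup G)) V hMtop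
    intro g
    by_cases hg : g ∈ Nz (P : Subgroup G)
    · rw [cj_of_mem hg]; exact hVM
    · rcases hI g hg with e | e | e
      · exact (F1 _ V (Ig (Nz (P : Subgroup G)) g) hV2 hVM hVN inf_le_left 3 (by rw [e]; norm_num)
          (by rw [hM]; norm_num)).trans inf_le_right
      · exact I2a h P hM V hV2 hVC hVN g hg e
      · exact (F1 _ V (Ig (Nz (P : Subgroup G)) g) hV2 hVM hVN inf_le_left 3 (by rw [e]; norm_num)
          (by rw [hM]; norm_num)).trans inf_le_right
  have h8 : ∀ g, g ∉ Nz (P : Subgroup G) → Nat.card (Ig (Nz (P : Subgroup G)) g) = 8 := by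
    intro g hg
    rcases hI g hg with e | e | e
    · exact e
    · obtain ⟨g', hg', h24⟩ := J2 h _ hM g hg e
      rcases hI g' hg' with e' | e' | e'
      · omega
      · omega
      · exact absurd e' (J1 h P hC g' hg')
    · exact absurd e (J1 h P hC g hg)
  have h3 := L5 h P hM hC h8
  obtain ⟨g, hg⟩ : ∃ g, g ∉ Nz (P : Subgroup G) := by
    by_contra hcon
    push Not at hcon
    exact hMtop (eq_top_iff.2 fun x _ => hcon x)
  have hab : ((1 : G) : G ⧸ Nz (P : Subgroup G)) ≠ (g : G ⧸ Nz (P : Subgroup G)) := by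
    intro e
    rw [QuotientGroup.eq] at e
    apply hg
    simpa using e
  have hZ : Cfsg.IsZassenhausGroup G (G ⧸ Nz (P : Subgroup G)) := by
    refine ⟨ZA _ hMtop, ZB h _ hM h8, ZC _ h3, ?_, ZE h _ hM⟩
    obtain ⟨s, hs, hs1⟩ : ∃ s ∈ Ig (Nz (P : Subgroup G)) g, s ≠ 1 := by
      by_contra hcon
      push Not at hcon
      have hb : Ig (Nz (P : Subgroup G)) g = ⊥ := (Subgroup.eq_bot_iff_forall _).2 hcon
      have := h8 g hg
      rw [hb] at this
      simp at this
    refine ⟨s, hs1, ((1 : G) : G ⧸ Nz (P : Subgroup G)), (g : G ⧸ Nz (P : Subgroup G)), hab, ?_, ?_⟩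
    · rw [smul_coset_eq_iff, cj_one]; exact hs.1
    · rw [smul_coset_eq_iff]; exact hs.2
  have heven : Even (Nat.card ↥(MulAction.stabilizer G ((1 : G) : G ⧸ Nz (P : Subgroup G)) ⊓
      MulAction.stabilizer G (g : G ⧸ Nz (P : Subgroup G)))) := by
    have e : MulAction.stabilizer G ((1 : G) : G ⧸ Nz (P : Subgroup G)) ⊓
        MulAction.stabilizer G (g : G ⧸ Nz (P : Subgroup G)) = Ig (Nz (P : Subgroup G)) g := by
      ext s
      simp only [Subgroup.mem_inf, MulAction.mem_stabilizer_iff, smul_coset_eq_iff, cj_one]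
    rw [e, h8 g hg]
    decide
  obtain ⟨F, _, _, _, ⟨e⟩⟩ := Cfsg.Agent.S0344.result hZ hab heven
  exact M2 F (by rw [← Nat.card_congr e.toEquiv, h])

/-- There is no simple group of order 720. -/
theorem no_720 {G : Type*} [Group G] [Finite G] [IsSimpleGroup G] (h : Nat.card G = 720) : False := by
  rcases n3 h with h10 | h40
  · exact case10 h h10
  · exact case40 h h40

end Cfsg.Agent.Lib.Helper74.O720
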